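import Cfsg.Agent.Lib.Sakuma.Seq

/-!
Resurrection: the products that close up on eight vectors, and the linear relation among six consecutive axes.
-/

set_option autoImplicit false
set_option maxHeartbeats 1000000

open Cfsg.Axial CfsgLib.Plane4.Majorana

namespace CfsgLib.Sakuma

variable {V : Type*} [AddCommGroup V] [Module ℝ V] {mul : V →ₗ[ℝ] V →ₗ[ℝ] V}
  {B : LinearMap.BilinForm ℝ V}

namespace Seq

variable (S : Seq mul B)
include S

omit S in
theorem law_zero_zero : monsterLaw (1 / 4 : ℝ) (1 / 32) 0 0 = {0} := by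
  rw [monsterLaw]; norm_num

omit S in
theorem law_zero_quarter : monsterLaw (1 / 4 : ℝ) (1 / 32) 0 (1 / 4) = {1 / 4} := by
  rw [monsterLaw]; norm_num

omit S in
theorem law_quarter_quarter : monsterLaw (1 / 4 : ℝ) (1 / 32) (1 / 4) (1 / 4) = {1, 0} := by
  rw [monsterLaw]; norm_num

/-- The two resurrected products. -/
theorem core :
    mul (S.a 0) (mul ((1 / 2 : ℝ) • (S.a 1 + S.a (-1))) ((1 / 2 : ℝ) • (S.a 1 + S.a (-1)))) =
      ((1 / 192 : ℝ) + (1 / 12 : ℝ) * S.l) • S.a (-1) +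
      ((7 / 12288 : ℝ)) • S.a (-2) +
      ((-25 / 6144 : ℝ) + (5 / 6 : ℝ) * S.l + (-16 / 3 : ℝ) * S.l ^ 2 + (-1 / 48 : ℝ) * S.m) • S.a 0 +
      ((1 / 192 : ℝ) + (1 / 12 : ℝ) * S.l) • S.a 1 +
      ((7 / 12288 : ℝ)) • S.a 2 +
      ((1 / 3 : ℝ) + (16 / 3 : ℝ) * S.l) • S.sig 1 0 +
      ((7 / 192 : ℝ)) • S.sig 2 0
    ∧ mul (S.sig 1 0) (S.sig 1 0) =
      ((-245 / 196608 : ℝ) + (49 / 768 : ℝ) * S.l) • S.a (-1) +
      ((49 / 196608 : ℝ)) • S.a (-2) +
      ((-7 / 98304 : ℝ) + (-7 / 384 : ℝ) * S.l + (7 / 6 : ℝ) * S.l ^ 2 + (7 / 1536 : ℝ) * S.m) • S.a 0 +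
      ((-245 / 196608 : ℝ) + (49 / 768 : ℝ) * S.l) • S.a 1 +
      ((49 / 196608 : ℝ)) • S.a 2 +
      ((-13 / 1536 : ℝ) + (-5 / 12 : ℝ) * S.l) • S.sig 1 0 +
      ((-7 / 1536 : ℝ)) • S.sig 2 0 +
      ((7 / 2048 : ℝ)) • S.sig 2 (-1) := by
  obtain ⟨u, v, w, hu, hv, hw, e1, e2⟩ := S.decomp_nb
  obtain ⟨-, -, ⟨⟨-, -, -, hlaw⟩, h1space⟩, -⟩ := S.pair 0
  have m0 : (0 : ℝ) ∈ majoranaSpectrum := by simp [majoranaSpectrum]
  have m4 : (1 / 4 : ℝ) ∈ majoranaSpectrum := by simp [majoranaSpectrum]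
  have huu : mul (S.a 0) (mul u u) = 0 := by
    have h := hlaw 0 m0 0 m0 u hu u hu
    rw [law_zero_zero, eigenSum_singleton, mem_eigen] at h
    simpa using h
  have huv : mul (S.a 0) (mul u v) = (1 / 4 : ℝ) • mul u v := by
    have h := hlaw 0 m0 (1 / 4) m4 u hu v hv
    rwa [law_zero_quarter, eigenSum_singleton, mem_eigen] at h
  have hσ0 : S.sig 1 0 = (1 * S.l) • S.a 0 + (1 / 4 : ℝ) • v + (1 / 32 : ℝ) • w
      - (1 / 32 : ℝ) • (S.a 0 + S.a 1) := by
    rw [sig, show (0 : ℤ) + 1 = 1 by norm_num]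
    nth_rw 1 [e1]
    rw [mem_eigen] at hu hv hw
    simp only [map_add, map_smul, S.idem, hu, hv, hw]
    module
  set a := S.a 0 with ha
  set b := S.a 1 with hb
  set b' := S.a (-1) with hb'
  set σ := S.sig 1 0 with hσ
  set s := (1 / 2 : ℝ) • (b + b') with hs
  set K := 4 * S.l - 1 / 8 with hK
  have ev : v = (4 : ℝ) • σ + (1 / 8 : ℝ) • s - K • a := by
    rw [hσ0, hs, e1, e2, hK]; module
  have ev' : s - S.l • a = u + v := by rw [hs, e1, e2]; module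
  have haa : mul a a = a := S.idem 0
  have hav : mul a v = (1 / 4 : ℝ) • v := mem_eigen.1 hv
  -- the coefficient at the axis
  set γ := (31 * S.l - 1) / 32 + (1 + S.m) / 64 - K * S.l / 4 with hγ
  have hvv : mul a (mul v v) = γ • a := by
    have h := hlaw (1 / 4) m4 (1 / 4) m4 v hv v hv
    rw [law_quarter_quarter, mem_eigenSum_pair, h1space] at h
    obtain ⟨x, hx, y, hy, hxy⟩ := h
    obtain ⟨t, rfl⟩ := Submodule.mem_span_singleton.1 hx
    have ht : B (mul v v) a = t := by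
      rw [← hxy, map_add, LinearMap.add_apply, map_smul, LinearMap.smul_apply,
        show B a a = 1 from S.norm 0, S.orth (i := 0) (c := 0) (d := 1) (by norm_num) hy (S.self_mem 0),
        smul_eq_mul, mul_one, add_zero]
    have hBv : B v v = B v b := by
      rw [e1, map_add, map_add, map_add, map_smul,
        show B v a = 0 from S.orth (i := 0) (d := 1) (by norm_num) hv (S.self_mem 0),
        S.orth (by norm_num) hv hu, S.orth (by norm_num) hv hw]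
      simp
    have hvb : B v b = 4 * ((31 * S.l - 1) / 32) + (1 + S.m) / 16 - K * S.l := by
      rw [ev, hs]
      simp only [map_sub, map_add, map_smul, LinearMap.sub_apply, LinearMap.add_apply,
        LinearMap.smul_apply, smul_eq_mul, hσ, hb, hb', ha, B_sig, S.norm,
        show B (S.a (-1)) (S.a 1) = S.m from rfl, show B (S.a 0) (S.a 1) = S.l from rfl]
      ring
    have hav' : B (mul v v) a = (1 / 4) * B v v := by
      rw [← S.assoc, S.comm v a, hav, map_smul, smul_eq_mul]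
    rw [hav', hBv, hvb] at ht
    rw [← hxy, map_add, map_smul, haa, mem_eigen.1 hy, zero_smul, add_zero, hγ, ← ht]
    congr 1
    ring
  -- products of `a`
  have has : mul a s = σ + (1 / 32 : ℝ) • a + (1 / 32 : ℝ) • s := by
    have h : σ = mul b' a - (1 / 32 : ℝ) • (b' + a) := by
      rw [hσ, ← S.sig_one (-1), sig, show (-1 : ℤ) + 1 = 0 by norm_num]
    have h' : σ = mul a b - (1 / 32 : ℝ) • (a + b) := by
      rw [hσ, hb, ha, sig, show (0 : ℤ) + 1 = 1 by norm_num]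
    rw [hs, map_smul, map_add, S.comm a b']
    linear_combination (norm := module) (-1 / 2 : ℝ) • (h + h')
  have haσ : mul a σ = ((768 * S.l - 25) / 1024) • a + (7 / 32 : ℝ) • σ + (7 / 1024 : ℝ) • s := by
    rw [hs, ha, hσ, S.a_sig]; module
  set d := (1 / 2 : ℝ) • (S.a 2 + S.a (-2)) with hd
  have had : mul a d = S.sig 2 0 + (1 / 32 : ℝ) • a + (1 / 32 : ℝ) • d := by
    have h1 : S.sig 2 0 = mul a (S.a 2) - (1 / 32 : ℝ) • (a + S.a 2) := rfl
    have h2 : S.sig 2 0 = mul (S.a (-2)) a - (1 / 32 : ℝ) • (S.a (-2) + a) := by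
      have := S.sig_period 2 (-2)
      rw [show (-2 : ℤ) + 2 = 0 by norm_num] at this
      rw [this, sig, show (-2 : ℤ) + 2 = 0 by norm_num]
    rw [hd, map_smul, map_add, S.comm a (S.a (-2))]
    linear_combination (norm := module) (-1 / 2 : ℝ) • (h1 + h2)
  have hσs : mul σ s = ((768 * S.l - 25) / 1024) • s + (7 / 32 : ℝ) • σ + (7 / 2048 : ℝ) • a
      + (7 / 2048 : ℝ) • d := by
    rw [hs, map_smul, map_add, S.comm σ b, S.comm σ b', hb, hb', hσ, S.sig_at 1, S.sig_at (-1), hd, ha,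
      show (1 : ℤ) + 1 = 2 by norm_num, show (1 : ℤ) - 1 = 0 by norm_num,
      show (-1 : ℤ) + 1 = 0 by norm_num, show (-1 : ℤ) - 1 = -2 by norm_num]
    module
  have hss : mul s s = (17 / 32 : ℝ) • s + (1 / 2 : ℝ) • S.sig 2 (-1) := by
    rw [sig, show (-1 : ℤ) + 2 = 1 by norm_num, hs]
    simp only [map_add, map_smul, LinearMap.add_apply, LinearMap.smul_apply, hb, hb', S.idem,
      S.comm (S.a 1) (S.a (-1))]
    module
  have htv : mul (s - S.l • a) v = (4 : ℝ) • mul σ s + (1 / 8 : ℝ) • mul s s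
      - (K + S.l / 8) • mul a s - (4 * S.l) • mul a σ + (S.l * K) • a := by
    rw [ev]
    simp only [map_add, map_sub, map_smul, LinearMap.sub_apply, LinearMap.smul_apply, haa,
      S.comm s a, S.comm s σ]
    module
  have htt : mul (s - S.l • a) (s - S.l • a) = mul s s - (2 * S.l) • mul a s + (S.l ^ 2) • a := by
    simp only [map_sub, map_smul, LinearMap.sub_apply, LinearMap.smul_apply, haa, S.comm s a]
    module
  have hX : mul a (mul (s - S.l • a) (s - S.l • a)) =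
      (2 : ℝ) • mul a (mul (s - S.l • a) v) - γ • a := by
    rw [ev']
    simp only [map_add, LinearMap.add_apply, huu, huv, hvv, S.comm v u]
    module
  have hY : mul v v = mul (s - S.l • a) v - (4 : ℝ) • mul a (mul (s - S.l • a) v) + (4 * γ) • a := by
    rw [ev']
    simp only [map_add, LinearMap.add_apply, huv, hvv]
    module
  rw [htt, htv] at hX
  simp only [map_add, map_sub, map_smul, haa, hσs, has, haσ, had] at hX
  have hass : mul a (mul s s) =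
      ((1 / 192 : ℝ) + (1 / 12 : ℝ) * S.l) • S.a (-1) +
      ((7 / 12288 : ℝ)) • S.a (-2) +
      ((-25 / 6144 : ℝ) + (5 / 6 : ℝ) * S.l + (-16 / 3 : ℝ) * S.l ^ 2 + (-1 / 48 : ℝ) * S.m) • S.a 0 +
      ((1 / 192 : ℝ) + (1 / 12 : ℝ) * S.l) • S.a 1 +
      ((7 / 12288 : ℝ)) • S.a 2 +
      ((1 / 3 : ℝ) + (16 / 3 : ℝ) * S.l) • S.sig 1 0 +
      ((7 / 192 : ℝ)) • S.sig 2 0 := by
    rw [hs, hd, hγ, hK] at hX
    rw [hs]
    linear_combination (norm := module) (4 / 3 : ℝ) • hX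
  refine ⟨hass, ?_⟩
  rw [htv] at hY
  simp only [map_add, map_sub, map_smul, haa, hσs, has, haσ, had, hass] at hY
  have hvv2 : mul v v = (16 : ℝ) • mul σ σ + mul σ s + (1 / 64 : ℝ) • mul s s - (8 * K) • mul a σ
      - (K / 4) • mul a s + (K ^ 2) • a := by
    rw [ev]
    simp only [map_add, map_sub, map_smul, LinearMap.add_apply, LinearMap.sub_apply,
      LinearMap.smul_apply, haa, S.comm σ a, S.comm s a, S.comm s σ]
    module
  rw [hvv2] at hY
  simp only [hσs, has, haσ, hss] at hY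
  rw [hs, hd, hγ, hK] at hY
  linear_combination (norm := module) (1 / 16 : ℝ) • hY

/-- The product of an axis and `σ` of its neighbours. -/
theorem a_sig_two_odd : mul (S.a 0) (S.sig 2 (-1)) =
      ((-19 / 3072 : ℝ) + (1 / 6 : ℝ) * S.l) • S.a (-1) +
      ((7 / 6144 : ℝ)) • S.a (-2) +
      ((-127 / 3072 : ℝ) + (5 / 3 : ℝ) * S.l + (-32 / 3 : ℝ) * S.l ^ 2 + (-1 / 24 : ℝ) * S.m) • S.a 0 +
      ((-19 / 3072 : ℝ) + (1 / 6 : ℝ) * S.l) • S.a 1 +
      ((7 / 6144 : ℝ)) • S.a 2 +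
      ((-19 / 48 : ℝ) + (32 / 3 : ℝ) * S.l) • S.sig 1 0 +
      ((7 / 96 : ℝ)) • S.sig 2 0 := by
  have h1 := S.core.1
  have h2 := S.sig_prev
  rw [sig, sig, show (-1 : ℤ) + 1 = 0 by norm_num, show (0 : ℤ) + 1 = 1 by norm_num,
    S.comm (S.a (-1))] at h2
  have hab : mul (S.a 0) (S.a 1) = S.sig 1 0 + (1 / 32 : ℝ) • (S.a 0 + S.a 1) := by
    rw [sig, show (0 : ℤ) + 1 = 1 by norm_num]; abel
  rw [show S.sig 2 (-1) = mul (S.a (-1)) (S.a 1) - (1 / 32 : ℝ) • (S.a (-1) + S.a 1) by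
    rw [sig, show (-1 : ℤ) + 2 = 1 by norm_num]]
  simp only [map_add, map_sub, map_smul, LinearMap.add_apply, LinearMap.smul_apply, S.idem,
    S.comm (S.a 1) (S.a (-1))] at h1 ⊢
  linear_combination (norm := module) (2 : ℝ) • h1 + (-17 / 32 : ℝ) • h2 + (-17 / 16 : ℝ) • hab

/-- The linear relation. -/
theorem relation :
      ((-6 : ℝ) + (256 : ℝ) * S.l) • S.a (-1) +
      ((1 : ℝ)) • S.a (-2) +
      ((33 / 7 : ℝ) + (-2304 / 7 : ℝ) * S.l + (32768 / 7 : ℝ) * S.l ^ 2 + (128 / 7 : ℝ) * S.m) • S.a 0 +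
      ((-33 / 7 : ℝ) + (2304 / 7 : ℝ) * S.l + (-32768 / 7 : ℝ) * S.l ^ 2 + (-128 / 7 : ℝ) * S.m) • S.a 1 +
      ((6 : ℝ) + (-256 : ℝ) * S.l) • S.a 2 +
      ((-1 : ℝ)) • S.a 3 +
      ((-32 : ℝ)) • S.sig 2 0 +
      ((32 : ℝ)) • S.sig 2 (-1) = 0 := by
  have h0 := S.core.2
  have h1 := (S.shift 1).core.2
  have p1 : S.sig 2 1 = S.sig 2 (-1) := by
    have := S.sig_period 2 (-1)
    rwa [show (-1 : ℤ) + 2 = 1 by norm_num] at this
  simp only [S.shift_sig, S.shift_l, S.shift_m, add_zero, S.sig_one 1,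
    show (1 : ℤ) + -1 = 0 by norm_num, p1,
    show ∀ i, (S.shift 1).a i = S.a (1 + i) from fun _ => rfl] at h1
  norm_num only at h1
  linear_combination (norm := module) (196608 / 49 : ℝ) • (h1 - h0)

theorem a_sig_two_even : mul (S.a 0) (S.sig 2 0) = ((768 * S.m - 25) / 1024) • S.a 0
    + (7 / 32 : ℝ) • S.sig 2 0 + (7 / 2048 : ℝ) • (S.a 2 + S.a (-2)) := by
  have h := (S.scale 2).a_sig
  rw [S.scale_sig, S.scale_two_l, mul_zero] at h
  simpa [scale] using h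

/-- The vector `σ` at distance three. -/
theorem sig_three : S.sig 3 0 =
      ((-37 / 96 : ℝ) + (40 / 3 : ℝ) * S.l) • S.a (-1) +
      ((-1 / 24 : ℝ)) • S.a (-2) +
      ((2705 / 672 : ℝ) + (-5576 / 21 : ℝ) * S.l + (88064 / 21 : ℝ) * S.l ^ 2 + (-160 / 21 : ℝ) * S.m) • S.a 0 +
      ((-29 / 84 : ℝ) + (328 / 21 : ℝ) * S.l + (-1024 / 7 : ℝ) * S.l ^ 2 + (-4 / 7 : ℝ) * S.m) • S.a 1 +
      ((11 / 96 : ℝ) + (-8 : ℝ) * S.l) • S.a 2 +
      ((-1 / 32 : ℝ)) • S.a 3 +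
      ((-491 / 21 : ℝ) + (19456 / 21 : ℝ) * S.l + (-32768 / 7 : ℝ) * S.l ^ 2 + (-128 / 7 : ℝ) * S.m) • S.sig 1 0 +
      ((7 / 3 : ℝ) + (-256 : ℝ) * S.l) • S.sig 2 0 := by
  have h := congrArg (mul (S.a 0)) S.relation
  have h2 := S.sig_prev
  rw [sig, sig, show (-1 : ℤ) + 1 = 0 by norm_num, show (0 : ℤ) + 1 = 1 by norm_num,
    S.comm (S.a (-1))] at h2
  have hab : mul (S.a 0) (S.a 1) = S.sig 1 0 + (1 / 32 : ℝ) • (S.a 0 + S.a 1) := by
    rw [sig, show (0 : ℤ) + 1 = 1 by norm_num]; abel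
  have hab' : mul (S.a 0) (S.a (-1)) = S.sig 1 0 + (1 / 32 : ℝ) • (S.a 0 + S.a (-1)) := by
    linear_combination (norm := module) h2 + hab
  have h22 : mul (S.a 0) (S.a 2) = S.sig 2 0 + (1 / 32 : ℝ) • (S.a 0 + S.a 2) := by
    rw [sig, show (0 : ℤ) + 2 = 2 by norm_num]; abel
  have h22' : mul (S.a 0) (S.a (-2)) = S.sig 2 0 + (1 / 32 : ℝ) • (S.a 0 + S.a (-2)) := by
    have := S.sig_period 2 (-2)
    rw [show (-2 : ℤ) + 2 = 0 by norm_num] at this
    rw [this, sig, show (-2 : ℤ) + 2 = 0 by norm_num, S.comm (S.a (-2))]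
    module
  have h33 : mul (S.a 0) (S.a 3) = S.sig 3 0 + (1 / 32 : ℝ) • (S.a 0 + S.a 3) := by
    rw [sig, show (0 : ℤ) + 3 = 3 by norm_num]; abel
  simp only [map_add, map_smul, map_zero, S.idem, hab, hab', h22, h22', h33, S.a_sig_two_even,
    S.a_sig_two_odd] at h
  linear_combination (norm := module) (-1 : ℝ) • h

end Seq

end CfsgLib.Sakuma
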