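import Mathlib
import Cfsg.Prelude.Def_AxialAlgebras
import Cfsg.Agent.Lib.Plane4.Majorana

/-!
Sequences of Majorana axes reflected into each other by their involutions, and the first products.
-/

set_option autoImplicit false

open Cfsg.Axial CfsgLib.Plane4.Majorana

namespace CfsgLib.Sakuma

variable {V : Type*} [AddCommGroup V] [Module ℝ V] {mul : V →ₗ[ℝ] V →ₗ[ℝ] V}
  {B : LinearMap.BilinForm ℝ V}

/-- A dihedral sequence of axes of length one. -/
structure Seq (mul : V →ₗ[ℝ] V →ₗ[ℝ] V) (B : LinearMap.BilinForm ℝ V) where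
  amb : IsMajoranaAmbient mul B
  /-- The axes. -/
  a : ℤ → V
  /-- The involutions. -/
  μ : ℤ → V ≃ₗ[ℝ] V
  pair : ∀ i, IsMajoranaPair mul B (μ i) (a i)
  act : ∀ i j, μ i (a j) = a (2 * i - j)
  norm : ∀ i, B (a i) (a i) = 1

namespace Seq

variable (S : Seq mul B)
include S

/-- The sequence moved by `k`. -/
def shift (k : ℤ) : Seq mul B where
  amb := S.amb
  a i := S.a (k + i)
  μ i := S.μ (k + i)
  pair i := S.pair _
  act i j := by
    rw [S.act]
    congr 1
    ring
  norm i := S.norm _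

/-- Every `k`th axis. -/
def scale (k : ℤ) : Seq mul B where
  amb := S.amb
  a i := S.a (k * i)
  μ i := S.μ (k * i)
  pair i := S.pair _
  act i j := by
    rw [S.act]
    congr 1
    ring
  norm i := S.norm _

/-- The vector `σ` of two axes at distance `k`. -/
noncomputable def sig (k i : ℤ) : V :=
  mul (S.a i) (S.a (i + k)) - (1 / 32 : ℝ) • (S.a i + S.a (i + k))

/-- The product of two neighbours. -/
def l : ℝ := B (S.a 0) (S.a 1)

/-- The product at distance two. -/
def m : ℝ := B (S.a (-1)) (S.a 1)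

theorem comm (u v : V) : mul u v = mul v u := S.amb.1 u v

theorem symm (u v : V) : B u v = B v u := S.amb.2.1 u v

theorem assoc (u v w : V) : B u (mul v w) = B (mul u v) w := S.amb.2.2.2.1 u v w

theorem idem (i : ℤ) : mul (S.a i) (S.a i) = S.a i := (S.pair i).2.2.1.1.2.1

theorem shift_sig (s k i : ℤ) : (S.shift s).sig k i = S.sig k (s + i) := by
  simp only [sig, shift, add_assoc]

theorem scale_sig (k j : ℤ) : (S.scale k).sig 1 j = S.sig k (k * j) := by
  simp only [sig, scale, mul_add, mul_one]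

theorem orth {i : ℤ} {c d : ℝ} (h : c ≠ d) {x y : V} (hx : x ∈ eigen mul (S.a i) c)
    (hy : y ∈ eigen mul (S.a i) d) : B x y = 0 := by
  rw [mem_eigen] at hx hy
  have e := S.assoc x (S.a i) y
  rw [hy, S.comm x, hx, map_smul, map_smul, LinearMap.smul_apply, smul_eq_mul, smul_eq_mul] at e
  exact mul_left_cancel₀ (sub_ne_zero.2 h.symm) (by rw [mul_zero]; linear_combination e)

theorem self_mem (i : ℤ) : S.a i ∈ eigen mul (S.a i) 1 := mem_eigen.2 (by rw [S.idem, one_smul])

/-- The decomposition of the two neighbours of an axis. -/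
theorem decomp_nb : ∃ u v w : V, u ∈ eigen mul (S.a 0) 0 ∧ v ∈ eigen mul (S.a 0) (1 / 4) ∧
    w ∈ eigen mul (S.a 0) (1 / 32) ∧ S.a 1 = S.l • S.a 0 + u + v + w ∧
      S.a (-1) = S.l • S.a 0 + u + v - w := by
  obtain ⟨t, u, v, w, hu, hv, hw, e⟩ := decomp (S.pair 0) (S.a 1)
  have ht : t = S.l := by
    rw [l, e]
    simp only [map_add, map_smul, smul_eq_mul, S.norm,
      S.orth (c := 1) (d := 0) (by norm_num) (S.self_mem 0) hu,
      S.orth (c := 1) (d := 1 / 4) (by norm_num) (S.self_mem 0) hv,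
      S.orth (c := 1) (d := 1 / 32) (by norm_num) (S.self_mem 0) hw]
    ring
  subst ht
  refine ⟨u, v, w, hu, hv, hw, e, ?_⟩
  obtain ⟨-, -, -, hfix, hneg⟩ := S.pair 0
  have h1 : S.μ 0 (S.l • S.a 0 + u + v) = S.l • S.a 0 + u + v := by
    refine hfix _ (add_mem (add_mem (Submodule.smul_mem _ _ ?_) ?_) ?_)
    · exact eigen_le_eigenSum (by simp) (S.self_mem 0)
    · exact eigen_le_eigenSum (by simp) hu
    · exact eigen_le_eigenSum (by simp) hv
  have h2 : S.μ 0 w = -w := hneg w hw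
  have h := S.act 0 1
  rw [show (2 : ℤ) * 0 - 1 = -1 by norm_num, e, map_add, h1, h2, ← sub_eq_add_neg] at h
  exact h.symm

theorem sig_prev : S.sig 1 (-1) = S.sig 1 0 := by
  obtain ⟨u, v, w, hu, hv, hw, e1, e2⟩ := S.decomp_nb
  rw [mem_eigen] at hu hv hw
  rw [sig, sig, show (-1 : ℤ) + 1 = 0 by norm_num, show (0 : ℤ) + 1 = 1 by norm_num, S.comm (S.a (-1)),
    e1, e2]
  simp only [map_add, map_sub, map_smul, S.idem, hu, hv, hw]
  module

theorem sig_one (i : ℤ) : S.sig 1 i = S.sig 1 0 := by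
  have step : ∀ j, S.sig 1 (j - 1) = S.sig 1 j := fun j => by
    have := (S.shift j).sig_prev
    rwa [S.shift_sig, S.shift_sig, add_zero, ← sub_eq_add_neg] at this
  induction i using Int.induction_on with
  | zero => rfl
  | succ n ih => rw [← step, add_sub_cancel_right, ih]
  | pred n ih => rw [step, ih]

theorem sig_period (k i : ℤ) : S.sig k (i + k) = S.sig k i := by
  have h := ((S.shift i).scale k).sig_one 1
  rwa [scale_sig, scale_sig, S.shift_sig, S.shift_sig, mul_one, mul_zero, add_zero] at h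

theorem sig_two (i j : ℤ) : S.sig 2 (i + 2 * j) = S.sig 2 i := by
  induction j using Int.induction_on with
  | zero => simp
  | succ n ih => rw [show i + 2 * ((n : ℤ) + 1) = i + 2 * n + 2 by ring, sig_period, ih]
  | pred n ih =>
    rw [← S.sig_period 2 (i + 2 * (-(n : ℤ) - 1)), show i + 2 * (-(n : ℤ) - 1) + 2 = i + 2 * -(n : ℤ) by ring, ih]

theorem dist_one_succ (i : ℤ) : B (S.a i) (S.a (i + 1)) = S.l := by
  have step : ∀ j, B (S.a (j + 1)) (S.a (j + 2)) = B (S.a j) (S.a (j + 1)) := fun j => by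
    have h := (S.pair (j + 1)).2.1 (S.a j) (S.a (j + 1))
    rw [S.act, S.act, show 2 * (j + 1) - j = j + 2 by ring, show 2 * (j + 1) - (j + 1) = j + 1 by ring,
      S.symm] at h
    exact h
  induction i using Int.induction_on with
  | zero => rfl
  | succ n ih => rw [show (n : ℤ) + 1 + 1 = n + 2 by ring, step, ih]
  | pred n ih =>
    have := step (-(n : ℤ) - 1)
    rw [show -(n : ℤ) - 1 + 1 = -n by ring, show -(n : ℤ) - 1 + 2 = -(n : ℤ) + 1 by ring] at this
    rw [sub_add_cancel, ← this, ih]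

theorem d1 {x y : ℤ} (h : y = x + 1 ∨ x = y + 1) : B (S.a x) (S.a y) = S.l := by
  rcases h with rfl | rfl
  · exact S.dist_one_succ x
  · rw [S.symm]; exact S.dist_one_succ y

theorem shift_l (k : ℤ) : (S.shift k).l = S.l := S.d1 (x := k + 0) (y := k + 1) (Or.inl (by ring))

/-- The product of an axis and `σ`. -/
theorem a_sig : mul (S.a 0) (S.sig 1 0) = ((768 * S.l - 25) / 1024) • S.a 0 + (7 / 32 : ℝ) • S.sig 1 0
    + (7 / 2048 : ℝ) • (S.a 1 + S.a (-1)) := by
  obtain ⟨u, v, w, hu, hv, hw, e1, e2⟩ := S.decomp_nb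
  rw [mem_eigen] at hu hv hw
  rw [sig, show (0 : ℤ) + 1 = 1 by norm_num, e1, e2]
  simp only [map_add, map_sub, map_smul, S.idem, hu, hv, hw]
  module

theorem sig_at (k : ℤ) : mul (S.a k) (S.sig 1 0) = ((768 * S.l - 25) / 1024) • S.a k
    + (7 / 32 : ℝ) • S.sig 1 0 + (7 / 2048 : ℝ) • (S.a (k + 1) + S.a (k - 1)) := by
  have h := (S.shift k).a_sig
  rw [S.shift_sig, add_zero, S.sig_one, S.shift_l] at h
  simpa [shift, ← sub_eq_add_neg] using h

theorem B_sig_self : B (S.sig 1 0) (S.a 0) = (31 * S.l - 1) / 32 := by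
  have h : B (mul (S.a 0) (S.a 1)) (S.a 0) = S.l := by
    rw [S.symm, S.assoc, S.idem]; rfl
  rw [sig, show (0 : ℤ) + 1 = 1 by norm_num]
  simp only [map_sub, map_add, map_smul, LinearMap.sub_apply, LinearMap.add_apply,
    LinearMap.smul_apply, smul_eq_mul, h, S.norm, S.d1 (x := 1) (y := 0) (Or.inr (by norm_num))]
  ring

theorem B_sig (k : ℤ) : B (S.sig 1 0) (S.a k) = (31 * S.l - 1) / 32 := by
  have h := (S.shift k).B_sig_self
  rw [S.shift_sig, add_zero, S.sig_one, S.shift_l] at h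
  simpa [shift] using h

theorem dist_two_centre : B (S.a 0) (S.a 2) = B (S.a (-1)) (S.a 1) := by
  have h1 : B (mul (S.a 1) (S.sig 1 0)) (S.a 0) = B (mul (S.a 0) (S.sig 1 0)) (S.a 1) := by
    rw [S.comm (S.a 1), S.comm (S.a 0) (S.sig 1 0), ← S.assoc, ← S.assoc, S.comm (S.a 1)]
  rw [S.sig_at 1, S.sig_at 0] at h1
  simp only [map_add, map_smul, LinearMap.add_apply, LinearMap.smul_apply, smul_eq_mul, B_sig,
    S.norm, show (1 : ℤ) + 1 = 2 by norm_num, show (1 : ℤ) - 1 = 0 by norm_num,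
    show (0 : ℤ) + 1 = 1 by norm_num, show (0 : ℤ) - 1 = -1 by norm_num] at h1
  rw [S.symm (S.a 2), S.d1 (x := 1) (y := 0) (Or.inr (by norm_num)),
    S.d1 (x := 0) (y := 1) (Or.inl (by norm_num))] at h1
  linear_combination (2048 / 7 : ℝ) * h1

theorem d2 {x y : ℤ} (h : y = x + 2 ∨ x = y + 2) : B (S.a x) (S.a y) = S.m := by
  have step : ∀ j, B (S.a (j + 1)) (S.a (j + 3)) = B (S.a j) (S.a (j + 2)) := fun j => by
    have h := (S.shift (j + 1)).dist_two_centre
    simp only [shift, add_assoc] at h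
    norm_num at h
    exact h
  have all : ∀ i, B (S.a i) (S.a (i + 2)) = B (S.a (-1)) (S.a 1) := by
    intro i
    induction i using Int.induction_on with
    | zero => simpa using S.dist_two_centre
    | succ n ih => rw [show (n : ℤ) + 1 + 2 = n + 3 by ring, step, ih]
    | pred n ih =>
      have := step (-(n : ℤ) - 1)
      rw [show -(n : ℤ) - 1 + 1 = -n by ring, show -(n : ℤ) - 1 + 3 = -(n : ℤ) + 2 by ring] at this
      rw [← this, ih]
  rcases h with rfl | rfl
  · exact all x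
  · rw [S.symm]; exact all y

theorem shift_m (k : ℤ) : (S.shift k).m = S.m := S.d2 (x := k + -1) (y := k + 1) (Or.inl (by ring))

theorem scale_two_l : (S.scale 2).l = S.m := S.d2 (x := 2 * 0) (y := 2 * 1) (Or.inl (by ring))

end Seq

end CfsgLib.Sakuma
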