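import Cfsg.Agent.Lib.Sakuma.Products

/-!
Two polynomial equations in the products at distances one and two, their nine solutions, and periodicity.
-/

set_option autoImplicit false
set_option maxHeartbeats 1000000

namespace CfsgLib.Sakuma

/-- The product at distance three. -/
noncomputable def f3 (l m : ℝ) : ℝ :=
  33 / 7 - 2169 / 7 * l - 1920 / 7 * l * m + 36864 / 7 * l ^ 2 - 32768 / 7 * l ^ 3 - 33 / 7 * m

/-- The product at distance four. -/
noncomputable def f4 (l m : ℝ) : ℝ :=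
  -(6 - 1622 / 7 * l - 2432 / 7 * l * m + 256 * l * f3 l m + 2304 / 7 * l ^ 2 + 32768 / 7 * l ^ 2 * m
    - 32768 / 7 * l ^ 3 - 177 / 7 * m + 128 / 7 * m ^ 2 - 6 * f3 l m)

/-- The product at distance five. -/
noncomputable def f5 (l m : ℝ) : ℝ :=
  -(-1 - 24 * l + 2304 / 7 * l * m - 2304 / 7 * l * f3 l m + 256 * l * f4 l m - 256 * l ^ 2
    - 32768 / 7 * l ^ 2 * m + 32768 / 7 * l ^ 2 * f3 l m + 177 / 7 * m + 128 / 7 * m * f3 l m
    - 128 / 7 * m ^ 2 + 33 / 7 * f3 l m - 6 * f4 l m)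

/-- The product at distance six. -/
noncomputable def f6 (l m : ℝ) : ℝ :=
  -(-6 * f5 l m + 256 * f5 l m * l + 29 * l - 256 * l * m + 2304 / 7 * l * f3 l m - 2304 / 7 * l * f4 l m
    - 32768 / 7 * l ^ 2 * f3 l m + 32768 / 7 * l ^ 2 * f4 l m - 24 * m - 128 / 7 * m * f3 l m
    + 128 / 7 * m * f4 l m - 33 / 7 * f3 l m + 33 / 7 * f4 l m)

/-- The first equation. -/
noncomputable def eq0 (l m : ℝ) : ℝ := ((-351 / 196 : ℝ) + (216 / 7 : ℝ) * l + (92160 / 7 : ℝ) * l ^ 2 + (-33103872 / 49 : ℝ) * l ^ 3 + (453771264 / 49 : ℝ) * l ^ 4 + (-402653184 / 49 : ℝ) * l ^ 5) + ((8703 / 196 : ℝ) + (-124392 / 49 : ℝ) * l + (1195008 / 49 : ℝ) * l ^ 2 + (-19660800 / 49 : ℝ) * l ^ 3) * m + ((-2088 / 49 : ℝ) + (-70656 / 49 : ℝ) * l) * m ^ 2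

/-- The second equation. -/
noncomputable def eq1 (l m : ℝ) : ℝ := ((117 / 56 : ℝ) + (-1800 / 7 : ℝ) * l + (69120 / 7 : ℝ) * l ^ 2 + (-872448 / 7 : ℝ) * l ^ 3 + (786432 / 7 : ℝ) * l ^ 4) + ((-501 / 56 : ℝ) + (3336 / 7 : ℝ) * l + (15360 / 7 : ℝ) * l ^ 2) * m + ((48 / 7 : ℝ)) * m ^ 2

/-- At every common zero one of the first six products is `1`. -/
theorem exists_one {l m : ℝ} (h0 : eq0 l m = 0) (h1 : eq1 l m = 0) :
    l = 1 ∨ m = 1 ∨ f3 l m = 1 ∨ f4 l m = 1 ∨ f5 l m = 1 ∨ f6 l m = 1 := by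
  simp only [eq0, eq1] at h0 h1
  have hlin : ((8775 / 784 : ℝ) + (-55260 / 49 : ℝ) * l + (1002240 / 49 : ℝ) * l ^ 2 + (30689280 / 49 : ℝ) * l ^ 3 + (-796262400 / 49 : ℝ) * l ^ 4 + (754974720 / 49 : ℝ) * l ^ 5) + ((-8775 / 784 : ℝ) + (-71460 / 49 : ℝ) * l + (138240 : ℝ) * l ^ 2 + (2949120 / 49 : ℝ) * l ^ 3) * m = 0 := by linear_combination h0 - ((-87 / 14 : ℝ) + (-1472 / 7 : ℝ) * l) * h1
  have hR : (-1709960483517235200 / 343 : ℝ) * (l * (l - 1 / 64) ^ 2 * (l - 5 / 256) * (l - 3 / 128) * (l - 1 / 32) * (l - 13 / 256)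
      * (l - 1 / 8) * (l - 1)) = 0 := by
    linear_combination ((-8775 / 784 : ℝ) + (-71460 / 49 : ℝ) * l + (138240 : ℝ) * l ^ 2 + (2949120 / 49 : ℝ) * l ^ 3) ^ 2 * h1 - (((48 / 7 : ℝ)) * (((-8775 / 784 : ℝ) + (-71460 / 49 : ℝ) * l + (138240 : ℝ) * l ^ 2 + (2949120 / 49 : ℝ) * l ^ 3) * m - ((8775 / 784 : ℝ) + (-55260 / 49 : ℝ) * l + (1002240 / 49 : ℝ) * l ^ 2 + (30689280 / 49 : ℝ) * l ^ 3 + (-796262400 / 49 : ℝ) * l ^ 4 + (754974720 / 49 : ℝ) * l ^ 5)) + ((-501 / 56 : ℝ) + (3336 / 7 : ℝ) * l + (15360 / 7 : ℝ) * l ^ 2) * ((-8775 / 784 : ℝ) + (-71460 / 49 : ℝ) * l + (138240 : ℝ) * l ^ 2 + (2949120 / 49 : ℝ) * l ^ 3)) * hlin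
  simp only [mul_eq_zero, pow_eq_zero_iff two_ne_zero, sub_eq_zero] at hR
  norm_num only [or_false, false_or] at hR
  rcases hR with ((((((( h | h) | h) | h) | h) | h) | h) | h) <;> subst h <;> norm_num at hlin h1
  · obtain rfl : m = 1 := by linarith
    exact Or.inr (Or.inl rfl)
  · have hm : (m - 1 / 64) * (m - 1 / 8) = 0 := by linear_combination (7 / 48 : ℝ) * h1
    rcases mul_eq_zero.1 hm with hm | hm <;> obtain rfl := sub_eq_zero.1 hm
    · exact Or.inr (Or.inr (Or.inl (by norm_num [f3])))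
    · exact Or.inr (Or.inr (Or.inr (Or.inl (by norm_num [f3, f4]))))
  · obtain rfl : m = 13 / 256 := by linarith
    exact Or.inr (Or.inr (Or.inr (Or.inr (Or.inr (by norm_num [f3, f4, f5, f6])))))
  · obtain rfl : m = 3 / 128 := by linarith
    exact Or.inr (Or.inr (Or.inr (Or.inr (Or.inl (by norm_num [f3, f4, f5])))))
  · obtain rfl : m = 0 := by linarith
    exact Or.inr (Or.inr (Or.inr (Or.inl (by norm_num [f3, f4]))))
  · obtain rfl : m = 13 / 256 := by linarith
    exact Or.inr (Or.inr (Or.inl (by norm_num [f3])))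
  · obtain rfl : m = 1 := by linarith
    exact Or.inr (Or.inl rfl)
  · exact Or.inl rfl

namespace Seq

variable {V : Type*} [AddCommGroup V] [Module ℝ V] {mul : V →ₗ[ℝ] V →ₗ[ℝ] V}
  {B : LinearMap.BilinForm ℝ V} (S : Seq mul B)
include S

theorem B_sig_two_self : B (S.sig 2 0) (S.a 0) = (31 * S.m - 1) / 32 := by
  have h := (S.scale 2).B_sig_self
  rw [S.scale_sig, S.scale_two_l, mul_zero] at h
  simpa [scale] using h

theorem B_sig_two_odd : B (S.sig 2 (-1)) (S.a 0) = (31 * S.l - 1) / 32 + (S.m - S.l) / 32 := by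
  have h2 := S.sig_prev
  rw [sig, show (-1 : ℤ) + 1 = 0 by norm_num] at h2
  have hab : mul (S.a 1) (S.a 0) = S.sig 1 0 + (1 / 32 : ℝ) • (S.a 0 + S.a 1) := by
    rw [S.comm, sig, show (0 : ℤ) + 1 = 1 by norm_num]; abel
  have h : B (mul (S.a (-1)) (S.a 1)) (S.a 0) = B (S.a (-1)) (mul (S.a 1) (S.a 0)) := (S.assoc _ _ _).symm
  rw [hab] at h
  rw [sig, show (-1 : ℤ) + 2 = 1 by norm_num]
  simp only [map_sub, map_add, map_smul, LinearMap.sub_apply, LinearMap.add_apply, LinearMap.smul_apply,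
    smul_eq_mul, h, S.symm (S.a (-1)) (S.sig 1 0), B_sig, S.d1 (x := -1) (y := 0) (Or.inl (by norm_num)),
    S.d1 (x := 1) (y := 0) (Or.inr (by norm_num)), S.d2 (x := -1) (y := 1) (Or.inl (by norm_num))]
  ring

theorem B_sig_two_even (j : ℤ) :
    B (S.sig 2 0) (S.a (2 * j)) = (31 * S.m - 1) / 32 ∧
      B (S.sig 2 (-1)) (S.a (2 * j)) = (31 * S.l - 1) / 32 + (S.m - S.l) / 32 := by
  have h1 := (S.shift (2 * j)).B_sig_two_self
  have h2 := (S.shift (2 * j)).B_sig_two_odd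
  have e := S.sig_two 0 j
  have e' := S.sig_two (-1) j
  rw [S.shift_sig, S.shift_m] at h1
  rw [S.shift_sig, S.shift_m, S.shift_l] at h2
  rw [zero_add] at e
  rw [add_comm] at e'
  rw [add_zero, e] at h1
  rw [e'] at h2
  exact ⟨by simpa [shift] using h1, by simpa [shift] using h2⟩

theorem B_sig_two_odd_at (j : ℤ) :
    B (S.sig 2 (-1)) (S.a (2 * j + 1)) = (31 * S.m - 1) / 32 ∧
      B (S.sig 2 0) (S.a (2 * j + 1)) = (31 * S.l - 1) / 32 + (S.m - S.l) / 32 := by
  obtain ⟨h1, h2⟩ := (S.shift 1).B_sig_two_even j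
  have p1 : S.sig 2 1 = S.sig 2 (-1) := by
    have := S.sig_period 2 (-1)
    rwa [show (-1 : ℤ) + 2 = 1 by norm_num] at this
  rw [S.shift_sig, S.shift_m, show (1 : ℤ) + 0 = 1 by norm_num, p1] at h1
  rw [S.shift_sig, S.shift_m, S.shift_l, show (1 : ℤ) + -1 = 0 by norm_num] at h2
  exact ⟨by simpa [shift, add_comm] using h1, by simpa [shift, add_comm] using h2⟩

theorem d0 {x : ℤ} : B (S.a x) (S.a x) = 1 := S.norm x

theorem dist_three (i : ℤ) : B (S.a i) (S.a (i + 3)) = f3 S.l S.m := by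
  set T := S.shift i
  have h := congrArg (fun x => B x (T.a 0)) T.relation
  obtain ⟨e1, e2⟩ := T.B_sig_two_even 0
  rw [mul_zero] at e1 e2
  simp only [map_add, map_smul, LinearMap.add_apply, LinearMap.smul_apply, smul_eq_mul, map_zero,
    LinearMap.zero_apply, e1, e2, T.d0, T.d1 (x := -1) (y := 0) (by norm_num),
    T.d1 (x := 1) (y := 0) (by norm_num), T.d2 (x := -2) (y := 0) (by norm_num),
    T.d2 (x := 2) (y := 0) (by norm_num), T.symm (T.a 3) (T.a 0)] at h
  rw [show T.l = S.l from S.shift_l i, show T.m = S.m from S.shift_m i] at h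
  have e : B (T.a 0) (T.a 3) = B (S.a i) (S.a (i + 3)) := by simp [T, shift]
  rw [e] at h
  rw [f3]
  linear_combination -h

theorem d3 {x y : ℤ} (h : y = x + 3 ∨ x = y + 3) : B (S.a x) (S.a y) = f3 S.l S.m := by
  rcases h with rfl | rfl
  · exact S.dist_three x
  · rw [S.symm]; exact S.dist_three y

theorem dist_four (i : ℤ) : B (S.a i) (S.a (i + 4)) = f4 S.l S.m := by
  set T := S.shift (i + 2)
  have h := congrArg (fun x => B x (T.a 2)) T.relation
  obtain ⟨e1, e2⟩ := T.B_sig_two_even 1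
  rw [mul_one] at e1 e2
  simp only [map_add, map_smul, LinearMap.add_apply, LinearMap.smul_apply, smul_eq_mul, map_zero,
    LinearMap.zero_apply, e1, e2, T.d0, T.d3 (x := -1) (y := 2) (by norm_num),
    T.d2 (x := 0) (y := 2) (by norm_num), T.d1 (x := 1) (y := 2) (by norm_num),
    T.d1 (x := 3) (y := 2) (by norm_num)] at h
  rw [show T.l = S.l from S.shift_l _, show T.m = S.m from S.shift_m _] at h
  have e : B (T.a (-2)) (T.a 2) = B (S.a i) (S.a (i + 4)) := by simp [T, shift, add_assoc]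
  rw [e] at h
  rw [f4]
  linear_combination h

theorem d4 {x y : ℤ} (h : y = x + 4 ∨ x = y + 4) : B (S.a x) (S.a y) = f4 S.l S.m := by
  rcases h with rfl | rfl
  · exact S.dist_four x
  · rw [S.symm]; exact S.dist_four y

theorem dist_five (i : ℤ) : B (S.a i) (S.a (i + 5)) = f5 S.l S.m := by
  set T := S.shift (i + 2)
  have h := congrArg (fun x => B x (T.a 3)) T.relation
  obtain ⟨e1, e2⟩ := T.B_sig_two_odd_at 1
  rw [show (2 : ℤ) * 1 + 1 = 3 by norm_num] at e1 e2
  simp only [map_add, map_smul, LinearMap.add_apply, LinearMap.smul_apply, smul_eq_mul, map_zero,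
    LinearMap.zero_apply, e1, e2, T.d0, T.d4 (x := -1) (y := 3) (by norm_num),
    T.d3 (x := 0) (y := 3) (by norm_num), T.d2 (x := 1) (y := 3) (by norm_num),
    T.d1 (x := 2) (y := 3) (by norm_num)] at h
  rw [show T.l = S.l from S.shift_l _, show T.m = S.m from S.shift_m _] at h
  have e : B (T.a (-2)) (T.a 3) = B (S.a i) (S.a (i + 5)) := by simp [T, shift, add_assoc]
  rw [e] at h
  rw [f5]
  linear_combination h

theorem d5 {x y : ℤ} (h : y = x + 5 ∨ x = y + 5) : B (S.a x) (S.a y) = f5 S.l S.m := by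
  rcases h with rfl | rfl
  · exact S.dist_five x
  · rw [S.symm]; exact S.dist_five y

theorem dist_six (i : ℤ) : B (S.a i) (S.a (i + 6)) = f6 S.l S.m := by
  set T := S.shift (i + 2)
  have h := congrArg (fun x => B x (T.a 4)) T.relation
  obtain ⟨e1, e2⟩ := T.B_sig_two_even 2
  rw [show (2 : ℤ) * 2 = 4 by norm_num] at e1 e2
  simp only [map_add, map_smul, LinearMap.add_apply, LinearMap.smul_apply, smul_eq_mul, map_zero,
    LinearMap.zero_apply, e1, e2, T.d5 (x := -1) (y := 4) (by norm_num),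
    T.d4 (x := 0) (y := 4) (by norm_num), T.d3 (x := 1) (y := 4) (by norm_num),
    T.d2 (x := 2) (y := 4) (by norm_num), T.d1 (x := 3) (y := 4) (by norm_num)] at h
  rw [show T.l = S.l from S.shift_l _, show T.m = S.m from S.shift_m _] at h
  have e : B (T.a (-2)) (T.a 4) = B (S.a i) (S.a (i + 6)) := by simp [T, shift, add_assoc]
  rw [e] at h
  rw [f6]
  linear_combination h

theorem d6 {x y : ℤ} (h : y = x + 6 ∨ x = y + 6) : B (S.a x) (S.a y) = f6 S.l S.m := by
  rcases h with rfl | rfl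
  · exact S.dist_six x
  · rw [S.symm]; exact S.dist_six y

theorem sig_three_moved (k : ℤ) : B (S.sig 3 0) (S.a k) = B ((S.shift 3).sig 3 0) ((S.shift 3).a (k - 3)) := by
  have h := S.sig_period 3 0
  rw [zero_add] at h
  rw [S.shift_sig, add_zero, h]
  simp [shift]

theorem equations : eq0 S.l S.m = 0 ∧ eq1 S.l S.m = 0 := by
  constructor
  · have h := S.sig_three_moved 0
    rw [show (0 : ℤ) - 3 = -3 by norm_num] at h
    set T := S.shift 3
    obtain ⟨e1, -⟩ := S.B_sig_two_even 0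
    obtain ⟨-, e2⟩ := T.B_sig_two_odd_at (-2)
    rw [mul_zero] at e1
    rw [show (2 : ℤ) * -2 + 1 = -3 by norm_num] at e2
    rw [S.sig_three, T.sig_three] at h
    simp only [map_add, map_smul, LinearMap.add_apply, LinearMap.smul_apply, smul_eq_mul, B_sig, e1, e2,
      S.d0, S.d1 (x := -1) (y := 0) (by norm_num), S.d1 (x := 1) (y := 0) (by norm_num),
      S.d2 (x := -2) (y := 0) (by norm_num), S.d2 (x := 2) (y := 0) (by norm_num),
      S.d3 (x := 3) (y := 0) (by norm_num),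
      T.d1 (x := -2) (y := -3) (by norm_num), T.d2 (x := -1) (y := -3) (by norm_num),
      T.d3 (x := 0) (y := -3) (by norm_num), T.d4 (x := 1) (y := -3) (by norm_num),
      T.d5 (x := 2) (y := -3) (by norm_num), T.d6 (x := 3) (y := -3) (by norm_num)] at h
    rw [show T.l = S.l from S.shift_l _, show T.m = S.m from S.shift_m _] at h
    simp only [f6, f5, f4, f3] at h
    rw [eq0]
    linear_combination h
  · have h := S.sig_three_moved 1
    rw [show (1 : ℤ) - 3 = -2 by norm_num] at h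
    set T := S.shift 3
    obtain ⟨-, e1⟩ := S.B_sig_two_odd_at 0
    obtain ⟨e2, -⟩ := T.B_sig_two_even (-1)
    rw [show (2 : ℤ) * 0 + 1 = 1 by norm_num] at e1
    rw [show (2 : ℤ) * -1 = -2 by norm_num] at e2
    rw [S.sig_three, T.sig_three] at h
    simp only [map_add, map_smul, LinearMap.add_apply, LinearMap.smul_apply, smul_eq_mul, B_sig, e1, e2,
      S.d0, S.d2 (x := -1) (y := 1) (by norm_num), S.d1 (x := 0) (y := 1) (by norm_num),
      S.d3 (x := -2) (y := 1) (by norm_num), S.d1 (x := 2) (y := 1) (by norm_num),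
      S.d2 (x := 3) (y := 1) (by norm_num),
      T.d0, T.d1 (x := -1) (y := -2) (by norm_num), T.d2 (x := 0) (y := -2) (by norm_num),
      T.d3 (x := 1) (y := -2) (by norm_num), T.d4 (x := 2) (y := -2) (by norm_num),
      T.d5 (x := 3) (y := -2) (by norm_num)] at h
    rw [show T.l = S.l from S.shift_l _, show T.m = S.m from S.shift_m _] at h
    simp only [f5, f4, f3] at h
    rw [eq1]
    linear_combination h

/-- The sequence of axes has a period at most six. -/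
theorem exists_period : ∃ N : ℕ, 1 ≤ N ∧ N ≤ 6 ∧ S.a N = S.a 0 := by
  have eq : ∀ N : ℤ, B (S.a 0) (S.a N) = 1 → S.a N = S.a 0 := by
    intro N h
    by_contra hne
    have hpos := S.amb.2.2.1 _ (sub_ne_zero.2 hne)
    simp only [map_sub, LinearMap.sub_apply, S.norm, h, S.symm (S.a N) (S.a 0)] at hpos
    linarith
  obtain ⟨h0, h1⟩ := S.equations
  rcases exists_one h0 h1 with h | h | h | h | h | h
  · exact ⟨1, le_rfl, by norm_num, eq _ (by rw [← h]; rfl)⟩
  · exact ⟨2, by norm_num, by norm_num, eq _ (by rw [← h]; exact S.d2 (by norm_num))⟩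
  · exact ⟨3, by norm_num, by norm_num, eq _ (by rw [← h]; exact S.d3 (by norm_num))⟩
  · exact ⟨4, by norm_num, by norm_num, eq _ (by rw [← h]; exact S.d4 (by norm_num))⟩
  · exact ⟨5, by norm_num, by norm_num, eq _ (by rw [← h]; exact S.d5 (by norm_num))⟩
  · exact ⟨6, by norm_num, by norm_num, eq _ (by rw [← h]; exact S.d6 (by norm_num))⟩

end Seq

end CfsgLib.Sakuma
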